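import Mathlib
import Cfsg.Agent.Lib.Helper93.M11U.Defs
import Cfsg.Agent.Lib.Helper91.M11Inv
import Cfsg.Agent.Lib.Helper64.Order60

set_option autoImplicit false

/-!
# S0420, package [Y0ISO]: `Y0 ≃* S₅`

An extension `Y` of order `120` of `N ≃* A₅` in which the centralizer of an element `f ∈ N` lies
in `N` is the symmetric group of degree `5`: the normalizer of a Sylow `2`-subgroup of `N` has
index `5` (Frattini) and the action on its cosets is faithful.
-/

namespace Cfsg.Agent.Lib.Helper20.M11U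

open Equiv

universe u

set_option maxRecDepth 100000 in
theorem a5_count_stab :
    (Finset.univ.filter (fun σ : alternatingGroup (Fin 5) => (σ : Perm (Fin 5)) 4 = 4)).card
      = 12 := by
  decide +kernel

set_option maxRecDepth 100000 in
theorem a5_count_four :
    (Finset.univ.filter
      (fun σ : alternatingGroup (Fin 5) => (σ : Perm (Fin 5)) 4 = 4 ∧ σ ^ 4 = 1)).card = 4 := by
  decide +kernel

/-- the stabilizer of the point `4` in `A₅` -/
def a5Stab : Subgroup (alternatingGroup (Fin 5)) where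
  carrier := {σ | (σ : Perm (Fin 5)) 4 = 4}
  mul_mem' := by
    intro a b ha hb
    show ((a * b : alternatingGroup (Fin 5)) : Perm (Fin 5)) 4 = 4
    have ha' : (a : Perm (Fin 5)) 4 = 4 := ha
    have hb' : (b : Perm (Fin 5)) 4 = 4 := hb
    rw [Subgroup.coe_mul, Perm.mul_apply, hb', ha']
  one_mem' := by
    show ((1 : alternatingGroup (Fin 5)) : Perm (Fin 5)) 4 = 4
    simp
  inv_mem' := by
    intro a ha
    show ((a⁻¹ : alternatingGroup (Fin 5)) : Perm (Fin 5)) 4 = 4
    have ha' : (a : Perm (Fin 5)) 4 = 4 := ha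
    rw [Subgroup.coe_inv, Perm.inv_eq_iff_eq]
    exact ha'.symm

theorem mem_a5Stab (σ : alternatingGroup (Fin 5)) : σ ∈ a5Stab ↔ (σ : Perm (Fin 5)) 4 = 4 :=
  Iff.rfl

theorem card_a5Stab : Nat.card a5Stab = 12 := by
  classical
  rw [← a5_count_stab, ← Fintype.card_subtype, ← Nat.card_eq_fintype_card]
  rfl

/-- in `A₅` there is a subgroup of order `12` normalizing a subgroup of order `4` -/
theorem a5_twelve_four : ∃ A V : Subgroup (alternatingGroup (Fin 5)), Nat.card A = 12 ∧
    Nat.card V = 4 ∧ ∀ a ∈ A, ∀ v ∈ V, a * v * a⁻¹ ∈ V := by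
  classical
  have : Fact (Nat.Prime 2) := ⟨by norm_num⟩
  obtain ⟨Q⟩ : Nonempty (Sylow 2 a5Stab) := inferInstance
  have hQ : Nat.card (Q : Subgroup a5Stab) = 4 := by
    obtain ⟨k, hk⟩ := IsPGroup.iff_card.mp Q.2
    have hk' : Nat.card (Q : Subgroup a5Stab) = 2 ^ k := hk
    have h1 := Subgroup.card_mul_index (Q : Subgroup a5Stab)
    have h2 := Q.not_dvd_index
    rw [card_a5Stab, hk'] at h1
    rw [hk']
    rcases k with _ | _ | _ | k
    · exfalso; apply h2; rw [pow_zero, one_mul] at h1; rw [h1]; norm_num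
    · exfalso; apply h2
      have : (Q : Subgroup a5Stab).index = 6 := by omega
      rw [this]; norm_num
    · norm_num
    · exfalso
      have : (8 : ℕ) ∣ 12 := by
        rw [← h1]
        exact Dvd.intro_left (2 ^ k * (Q : Subgroup a5Stab).index) (by ring)
      omega
  refine ⟨a5Stab, (Q : Subgroup a5Stab).map a5Stab.subtype, card_a5Stab, ?_, ?_⟩
  · rw [Subgroup.card_map_of_injective a5Stab.subtype_injective]
    exact hQ
  · -- the image of `Q` is the set of the elements of the stabilizer with `σ ^ 4 = 1`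
    have hsub : (((Q : Subgroup a5Stab).map a5Stab.subtype : Subgroup _) : Set _) ⊆
        {σ : alternatingGroup (Fin 5) | (σ : Perm (Fin 5)) 4 = 4 ∧ σ ^ 4 = 1} := by
      rintro x ⟨y, hy, rfl⟩
      refine ⟨y.2, ?_⟩
      have h1 : (⟨y, hy⟩ : (Q : Subgroup a5Stab)) ^ 4 = 1 := by
        rw [← hQ]; exact pow_card_eq_one'
      have h2 := congrArg (fun z : (Q : Subgroup a5Stab) => ((z : a5Stab) : alternatingGroup (Fin 5))) h1
      simpa using h2
    have hcardW : {σ : alternatingGroup (Fin 5) | (σ : Perm (Fin 5)) 4 = 4 ∧ σ ^ 4 = 1}.ncard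
        = 4 := by
      have h4 := a5_count_four
      rw [Set.ncard_eq_toFinset_card']
      convert h4 using 2
      ext σ
      simp
    have hcardV : Set.ncard (((Q : Subgroup a5Stab).map a5Stab.subtype :
        Subgroup (alternatingGroup (Fin 5))) : Set (alternatingGroup (Fin 5))) = 4 := by
      rw [← Nat.card_coe_set_eq]
      have h := Subgroup.card_map_of_injective (K := (Q : Subgroup a5Stab))
        a5Stab.subtype_injective
      rw [hQ] at h
      exact h
    have heq := Set.eq_of_subset_of_ncard_le hsub (by rw [hcardW, hcardV]) (Set.toFinite _)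
    intro a ha v hv
    have hv' : v ∈ {σ : alternatingGroup (Fin 5) | (σ : Perm (Fin 5)) 4 = 4 ∧ σ ^ 4 = 1} :=
      hsub hv
    have hmem : a * v * a⁻¹ ∈
        {σ : alternatingGroup (Fin 5) | (σ : Perm (Fin 5)) 4 = 4 ∧ σ ^ 4 = 1} := by
      refine ⟨?_, ?_⟩
      · have h1 : v ∈ a5Stab := hv'.1
        exact a5Stab.mul_mem (a5Stab.mul_mem ha h1) (a5Stab.inv_mem ha)
      · rw [conj_pow, hv'.2]; simp
    rw [← heq] at hmem
    exact hmem

/-- a group isomorphic to `A₅` has a subgroup of order `12` normalizing a subgroup of order `4` -/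
theorem exists_twelve_four {N : Type u} [Group N] (e : N ≃* alternatingGroup (Fin 5)) :
    ∃ A V : Subgroup N, Nat.card A = 12 ∧ Nat.card V = 4 ∧
      ∀ a ∈ A, ∀ v ∈ V, a * v * a⁻¹ ∈ V := by
  obtain ⟨A, V, hA, hV, hAV⟩ := a5_twelve_four
  refine ⟨A.map e.symm.toMonoidHom, V.map e.symm.toMonoidHom, ?_, ?_, ?_⟩
  · rw [Subgroup.card_map_of_injective e.symm.injective]; exact hA
  · rw [Subgroup.card_map_of_injective e.symm.injective]; exact hV
  · rintro a ⟨a0, ha0, rfl⟩ v ⟨v0, hv0, rfl⟩
    refine ⟨a0 * v0 * a0⁻¹, hAV a0 ha0 v0 hv0, ?_⟩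
    simp

set_option maxHeartbeats 1600000 in
/-- an extension of order `120` of `A₅` in which the centralizer of some `f ∈ N` lies in `N` is
the symmetric group of degree `5` -/
theorem iso_S5 {Y : Type u} [Group Y] [Finite Y] (hY : Nat.card Y = 120) (N : Subgroup Y)
    (hN : Nat.card N = 60) (e : N ≃* alternatingGroup (Fin 5)) (f : Y) (hfN : f ∈ N)
    (hf : ∀ r : Y, r * f = f * r → r ∈ N) : Nonempty (Y ≃* Perm (Fin 5)) := by
  classical
  have : Fact (Nat.Prime 2) := ⟨by norm_num⟩
  have hNidx : N.index = 2 := by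
    have := Subgroup.card_mul_index N
    rw [hN, hY] at this; omega
  have hNn : N.Normal := Subgroup.normal_of_index_eq_two hNidx
  have hNs : IsSimpleGroup N := e.isSimpleGroup
  obtain ⟨A, V, hA, hV, hAV⟩ := exists_twelve_four e
  obtain ⟨P, hP⟩ := (IsPGroup.of_card (p := 2) (n := 2) (G := V) (by rw [hV]; norm_num)).exists_le_sylow
  have hPcard : Nat.card (P : Subgroup N) = 4 := by
    obtain ⟨k, hk⟩ := IsPGroup.iff_card.mp P.2
    have hk' : Nat.card (P : Subgroup N) = 2 ^ k := hk
    have h1 : Nat.card (P : Subgroup N) ∣ 60 := hN ▸ Subgroup.card_subgroup_dvd_card _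
    have h2 : 4 ∣ Nat.card (P : Subgroup N) := by
      have := Subgroup.card_dvd_of_le hP
      rwa [hV] at this
    rw [hk'] at h1 h2 ⊢
    rcases k with _ | _ | _ | k
    · norm_num at h2
    · norm_num at h2
    · norm_num
    · exfalso
      have : 8 ∣ 60 := (Dvd.intro (2 ^ k) (by ring)).trans h1
      omega
  have hPV : V = (P : Subgroup N) := Subgroup.eq_of_le_of_card_ge hP (by rw [hPcard, hV])
  obtain ⟨L, hL⟩ : ∃ L : Subgroup Y,
      L = Subgroup.normalizer (((P : Subgroup N).map N.subtype : Subgroup Y) : Set Y) := ⟨_, rfl⟩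
  have hFr : L ⊔ N = ⊤ := by rw [hL]; exact Sylow.normalizer_sup_eq_top P
  -- `A` normalizes `P`
  have hAL : A.map N.subtype ≤ L ⊓ N := by
    rintro x ⟨a, ha, rfl⟩
    refine ⟨?_, a.2⟩
    show N.subtype a ∈ L
    rw [hL, Subgroup.mem_normalizer_iff]
    intro h
    constructor
    · rintro ⟨v, hv, rfl⟩
      refine ⟨a * v * a⁻¹, ?_, by simp⟩
      have hv' : v ∈ V := by rw [hPV]; exact hv
      have := hAV a ha v hv'
      rw [hPV] at this
      exact this
    · rintro ⟨w, hw, hwe⟩
      refine ⟨a⁻¹ * w * a, ?_, ?_⟩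
      · have hw' : w ∈ V := by rw [hPV]; exact hw
        have := hAV a⁻¹ (A.inv_mem ha) w hw'
        rw [hPV, inv_inv] at this
        exact this
      · have h1 : N.subtype (a⁻¹ * w * a) = (N.subtype a)⁻¹ * N.subtype w * N.subtype a := by
          simp
        rw [h1, hwe]; group
  -- `N` is not contained in `L`
  have hNL : ¬ N ≤ L := by
    intro hle
    have hPn : (P : Subgroup N).Normal := by
      constructor
      intro v hv n
      have hn : (n : Y) ∈ L := hle n.2
      rw [hL, Subgroup.mem_normalizer_iff] at hn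
      obtain ⟨w, hw, hwe⟩ := (hn (N.subtype v)).mp ⟨v, hv, rfl⟩
      have : w = n * v * n⁻¹ := by
        apply Subtype.ext
        have h2 : (w : Y) = N.subtype w := rfl
        rw [h2, hwe]
        simp
      rw [← this]
      exact hw
    rcases hPn.eq_bot_or_eq_top with h | h
    · rw [h, Subgroup.card_bot] at hPcard; omega
    · rw [h, Subgroup.card_top, hN] at hPcard; omega
  have hLN : Nat.card ↥(L ⊓ N) = 12 := by
    have h1 : 12 ∣ Nat.card ↥(L ⊓ N) := by
      have := Subgroup.card_dvd_of_le hAL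
      rwa [Subgroup.card_map_of_injective N.subtype_injective, hA] at this
    have h2 : Nat.card ↥(L ⊓ N) ∣ 60 := by
      have := Subgroup.card_dvd_of_le (inf_le_right : L ⊓ N ≤ N)
      rwa [hN] at this
    have h3 : Nat.card ↥(L ⊓ N) ≠ 60 := by
      intro h
      apply hNL
      have : L ⊓ N = N := Subgroup.eq_of_le_of_card_ge inf_le_right (by rw [h, hN])
      rw [← this]; exact inf_le_left
    obtain ⟨j, hj⟩ := h1
    rw [hj] at h2 h3 ⊢
    have hj5 : j ∣ 5 := by
      have : 12 * j ∣ 12 * 5 := h2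
      exact Nat.dvd_of_mul_dvd_mul_left (by norm_num) this
    rcases (Nat.dvd_prime (by norm_num : Nat.Prime 5)).mp hj5 with h | h
    · rw [h]
    · rw [h] at h3; omega
  have hLcard : Nat.card L = 24 := by
    have := Cfsg.Agent.Lib.Helper64.Order60.card_sup_mul_card_inf L N
    rw [hFr, Subgroup.card_top, hY, hLN, hN] at this
    omega
  have hLidx : L.index = 5 := by
    have := Subgroup.card_mul_index L
    rw [hLcard, hY] at this; omega
  -- the action on the cosets of `L` is faithful
  have hinj : Function.Injective (MulAction.toPermHom Y (Y ⧸ L)) := by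
    rw [← MonoidHom.ker_eq_bot_iff, ← Subgroup.normalCore_eq_ker]
    have hRn : (L.normalCore).Normal := Subgroup.normalCore_normal L
    have hRL : L.normalCore ≤ L := Subgroup.normalCore_le L
    have hdisj : Disjoint L.normalCore N := by
      have hn2 : (L.normalCore.subgroupOf N).Normal := hRn.subgroupOf N
      rcases hn2.eq_bot_or_eq_top with h | h
      · exact Subgroup.subgroupOf_eq_bot.mp h
      · exact absurd ((Subgroup.subgroupOf_eq_top.mp h).trans hRL) hNL
    rw [eq_bot_iff]
    intro r hr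
    have hc := Subgroup.commute_of_normal_of_disjoint _ _ hRn hNn hdisj r f hr hfN
    have hrN : r ∈ N := hf r hc.eq
    exact hdisj.le_bot ⟨hr, hrN⟩
  have hcard : Nat.card Y = Nat.card (Perm (Y ⧸ L)) := by
    rw [Nat.card_perm, ← Subgroup.index_eq_card, hLidx, hY]
    rfl
  have hbij : Function.Bijective (MulAction.toPermHom Y (Y ⧸ L)) :=
    (Nat.bijective_iff_injective_and_card _).mpr ⟨hinj, hcard⟩
  have h5 : Nat.card (Y ⧸ L) = 5 := by rw [← Subgroup.index_eq_card, hLidx]
  exact ⟨(MulEquiv.ofBijective _ hbij).trans (Finite.equivFinOfCardEq h5).permCongrHom⟩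

/-- **[Y0ISO]** `Y0` is the symmetric group of degree `5` -/
theorem pkgY0Iso : Cfsg.Agent.Lib.Helper93.M11U.PkgY0Iso.{u} := by
  intro G _ _ T hG hcard C hX hY
  obtain ⟨⟨e⟩, hX60, hfX, -, -⟩ := hX
  obtain ⟨hY120, hXY, -, -⟩ := hY
  have : Fact (Nat.Prime 5) := ⟨by norm_num⟩
  have hzc : Nat.card (Subgroup.zpowers C.f) = 5 := by rw [Nat.card_zpowers, C.hf]
  obtain ⟨P, hP⟩ := (IsPGroup.of_card (p := 5) (n := 1) (G := Subgroup.zpowers C.f)
    (by rw [hzc, pow_one])).exists_le_sylow
  obtain ⟨hP5, -, hCP, -⟩ := Cfsg.Agent.Lib.Helper91.M11.sylow5_full hcard P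
  have hPz : Subgroup.zpowers C.f = (P : Subgroup G) :=
    Subgroup.eq_of_le_of_card_ge hP (by rw [hP5, hzc])
  have hcent : ∀ r : G, r * C.f = C.f * r → r ∈ Cfsg.Agent.Lib.Helper93.M11U.X0 C := by
    intro r hr
    have hr' : r ∈ Subgroup.centralizer ((P : Subgroup G) : Set G) := by
      rw [← hPz]
      intro y hy
      obtain ⟨a, rfl⟩ := Subgroup.mem_zpowers_iff.mp hy
      have hc : Commute C.f r := hr.symm
      exact (hc.zpow_left a).eq
    rw [hCP, ← hPz] at hr'
    exact (Subgroup.zpowers_le.mpr hfX) hr'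
  have hN : Nat.card ((Cfsg.Agent.Lib.Helper93.M11U.X0 C).subgroupOf
      (Cfsg.Agent.Lib.Helper93.M11U.Y0 C)) = 60 := by
    rw [← hX60]
    exact Nat.card_congr (Subgroup.subgroupOfEquivOfLe hXY).toEquiv
  refine iso_S5 hY120 _ hN ((Subgroup.subgroupOfEquivOfLe hXY).trans e) ⟨C.f, hXY hfX⟩ ?_ ?_
  · exact Subgroup.mem_subgroupOf.mpr hfX
  · intro r hr
    apply Subgroup.mem_subgroupOf.mpr
    apply hcent
    exact congrArg Subtype.val hr

end Cfsg.Agent.Lib.Helper20.M11U
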